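import Cfsg.Agent.Lib.FT.Short.Family

/-!
Step F7 of the short route, the degenerate case: without irreducible members `|Y| = 1`.
-/

set_option autoImplicit false
set_option linter.style.haveILetI false
set_option linter.unusedSectionVars false

namespace CfsgLib.FT.Short

open Cfsg CfsgLib.BGAppendix CfsgLib.Coherence CfsgLib.CharTheory
open CfsgLib.FT.PF9 (coreC)

universe u

variable {G : Type u} [Group G] [Fintype G] {M W₁ U W₂ H₀ : Subgroup G} [Fintype M] {p : ℕ}

/-- Either an irreducible member exists, or `U` has full order in the Galois case with `C = 1`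
and `|Y| = 1`. -/
theorem FamCtx.exists_irr_mem_or (hc : FamCtx M W₁ U W₂ H₀ p) (hW₂ : (Nat.card W₂).Prime) :
    (∃ lam ∈ famSet M W₁ U H₀, IsIrrCharacter M lam) ∨
      (PF9.IsGalois M U H₀ ∧ coreC M U H₀ = ⊥ ∧
        Nat.card U * (p - 1) = p ^ Nat.card W₁ - 1 ∧ yCard M U H₀ = 1) := by
  classical
  by_cases hirr : ∃ lam ∈ famSet M W₁ U H₀, IsIrrCharacter M lam
  · exact Or.inl hirr
  obtain ⟨hgal, hC1, hU⟩ := (exists_irr_mem hc.data hc.chief hc.oddM).resolve_left hirr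
  refine Or.inr ⟨hgal, hC1, hU, ?_⟩
  have h := hc.primeDade
  haveI := h.pti.finite_dual
  haveI := Fintype.ofFinite (dualTriv (W₁ ⊔ W₂) W₁)
  have hp : p = Nat.card W₂ := by
    have hd : p ∣ Nat.card W₂ := hc.chief.card_W₂ ▸ Subgroup.relIndex_dvd_card H₀ W₂
    exact ((Nat.dvd_prime hW₂).1 hd).resolve_left hc.chief.prime.ne_one
  set T := (famSet_finite (M := M) (W₁ := W₁) (U := U) (H₀ := H₀)).toFinset with hT
  -- every member is one of the `p - 1` reducible ones
  have hred : ∀ χ ∈ T, ∃ j : dualTriv (W₁ ⊔ W₂) W₁, j ≠ 1 ∧ h.pti.red j = χ := by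
    intro χ hχ
    have hm := famSet_finite.mem_toFinset.1 hχ
    rcases h.indNotKer_cases (indNotKer_of_famSet hc.data hm) with hi | ⟨j, hj, hj1, e⟩
    · exact absurd ⟨χ, hm, hi⟩ hirr
    · exact ⟨⟨j, hj⟩, fun e' => hj1 (congrArg Subtype.val e'), e.symm⟩
  have hcard : T.card ≤ p - 1 := by
    have hsub : T ⊆ Finset.image
        (fun j : dualTriv (W₁ ⊔ W₂) W₁ => h.pti.red (j : ↥(W₁ ⊔ W₂) →* ℂˣ))
        (Finset.univ.filter fun j : dualTriv (W₁ ⊔ W₂) W₁ => j ≠ 1) := fun χ hχ => by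
      obtain ⟨j, hj1, e⟩ := hred χ hχ
      exact Finset.mem_image.2 ⟨j, Finset.mem_filter.2 ⟨Finset.mem_univ _, hj1⟩, e⟩
    refine (Finset.card_le_card hsub).trans (Finset.card_image_le.trans (le_of_eq ?_))
    rw [hp, ← h.pti.card_dual₂, Nat.card_eq_fintype_card,
      Finset.filter_ne', Finset.card_erase_of_mem (Finset.mem_univ _), Finset.card_univ]
  have hW : famWeight M W₁ U H₀ ≤ ((p - 1 : ℕ) : ℝ) / Nat.card W₁ := by
    have hn : ∀ χ ∈ T, 1 / (classInner χ χ).re = 1 / (Nat.card W₁ : ℝ) := fun χ hχ => by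
      obtain ⟨j, hj1, e⟩ := hred χ hχ
      rw [← e, h.inner_red j.2 j.2, if_pos rfl, Complex.natCast_re]
    rw [famWeight, ← hT, Finset.sum_congr rfl hn, Finset.sum_const, nsmul_eq_mul, mul_one_div]
    exact div_le_div_of_nonneg_right (by exact_mod_cast hcard) (Nat.cast_nonneg _)
  have key := (famWeight_free hc.data hc.chief hc.oddM
    (famFree_of_galois hc.data hc.chief hgal)).trans
      (mul_le_mul_of_nonneg_left hW (Nat.cast_nonneg _))
  have hq : (Nat.card W₁ : ℝ) ≠ 0 := Nat.cast_ne_zero.2 Nat.card_pos.ne'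
  have hu : uBar M U H₀ = Nat.card U := by rw [uBar, hC1, Subgroup.relIndex_bot_left]
  rw [famDeg, Nat.cast_mul, hu, mul_assoc, mul_left_comm, mul_div_cancel₀ _ hq,
    ← Nat.cast_mul, hU] at key
  have hpow : 1 < p ^ Nat.card W₁ := Nat.one_lt_pow Nat.card_pos.ne' hc.chief.prime.one_lt
  have key' : yCard M U H₀ * (p ^ Nat.card W₁ - 1) ≤ p ^ Nat.card W₁ - 1 := by
    rw [← Nat.cast_le (α := ℝ), Nat.cast_mul]
    refine le_trans (le_of_eq ?_) key
    rw [Nat.cast_sub hpow.le, Nat.cast_pow, Nat.cast_one]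
  have hy : 0 < yCard M U H₀ := Nat.pos_of_ne_zero Subgroup.index_ne_zero_of_finite
  by_contra hne
  have h2 : 2 * (p ^ Nat.card W₁ - 1) ≤ yCard M U H₀ * (p ^ Nat.card W₁ - 1) :=
    Nat.mul_le_mul_right _ (by omega)
  omega

end CfsgLib.FT.Short
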